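import Cfsg.Agent.H530.OZ.Geo

/-!
# S4842: isolated primes dividing `q ^ k - 1`, `k` odd, in dimension `2k + 2` (helper530)

* `isoP'` : `V = (L × L) ⊕ P`, `dim P = 2`;
* `isoP8` : `POmega⁺_8(q)`, `q ≥ 3`, `r` dividing `q ^ 3 - 1`, not `q - 1`, `q ^ 2 - 1`.
-/

set_option autoImplicit false

namespace Cfsg.Agent.H530.OZ

open Module QuadraticMap Cfsg Subgroup
open Cfsg.Agent.LieClassical.OrthCore Cfsg.Agent.LieClassical.OrthTrans Cfsg.Agent.H890.SpParity
open Cfsg.Agent.LieClassical.OrthFinite Cfsg.Agent.LieClassical.OrthForms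
open Cfsg.Agent.H182.Sign Cfsg.Agent.H182.Orth Cfsg.Agent.H530.CJ Cfsg.Agent.H93.CJ Cfsg.Agent.H93.PReg

/-- **Primes dividing `q ^ k - 1`, `k` odd, in dimension `2k + 2`.** -/
theorem isoP' {F : Type} [Field F] [Fintype F] {p : ℕ} [Fact p.Prime] [CharP F p] {k : ℕ}
    (hk : 3 ≤ k) (hodd : Odd k) {P : Type} [AddCommGroup P] [Module F P] [Finite P] {Q' : QuadraticForm F P} {δ : ℤ}
    (hQ' : Sg Q' 1 δ) {ι : Type} [Fintype ι] [DecidableEq ι] {R : QuadraticForm F (ι → F)}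
    (hR : Sg R (k + 1) (1 * δ)) {S : Type*} [Group S] (i : POmega F ⇑R ≃* S) {r : ℕ} (hr : r.Prime)
    (hr1 : r ∣ Fintype.card F ^ k - 1) (hr2 : ∀ i : ℕ, 0 < i → i < k → ¬ r ∣ Fintype.card F ^ i - 1)
    (hnum : ¬ (r ≤ 2 * (k + 1) + 1 ∧ Fintype.card F ^ k - 1 ∣ 2 * r)) : IsoAt p r S := by
  obtain ⟨K, _, _, b, hKf, y, hK, hy⟩ := Singer.exists_ext F k (by omega)
  have hrk : Module.finrank F K = k := by rw [Module.finrank_eq_card_basis b, Fintype.card_fin]
  have hQ := sg_tq F K hrk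
  obtain ⟨hG, π, hπ, hker⟩ := exists_pi' (hQ.prod hQ') (by omega) hR i
  have hcF : Nat.card F = Fintype.card F := Nat.card_eq_fintype_card
  have hF : 2 ≤ Fintype.card F := Fintype.one_lt_card
  have hFk : 2 ^ k ≤ Fintype.card F ^ k := Nat.pow_le_pow_left hF k
  have hk1 : k < 2 ^ k := Nat.lt_two_pow_self
  obtain ⟨s, hs⟩ := hr1
  have hs0 : s ≠ 0 := by
    rintro rfl
    omega
  set lam : Kˣ := y ^ s with hlam
  have hlamo : orderOf (lam : K) = r := by
    rw [orderOf_units, hlam, orderOf_pow_of_dvd hs0 (by rw [hy, hs]; exact Dvd.intro_left r rfl), hy, hs,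
      Nat.mul_div_cancel _ (Nat.pos_of_ne_zero hs0)]
  have hr2' : r ≠ 2 := by
    rintro rfl
    rcases Nat.even_or_odd (Fintype.card F) with h | h
    · have h1 : Odd (Fintype.card F ^ k - 1) := Nat.Even.sub_odd (by omega) (h.pow_of_ne_zero (by omega)) odd_one
      rw [hs] at h1
      exact (Nat.not_odd_iff_even.2 (even_two_mul s)) h1
    · have h1 := hr2 1 one_pos (by omega)
      rw [pow_one] at h1
      exact h1 (Nat.Odd.sub_odd h odd_one).two_dvd
  have hT := torU_plus (F := F) (r := r) (lam := lam) (by omega) (tor_of_odd hr hr2' lam.ne_zero hlamo (by rwa [hrk]) (by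
    intro i hi hi2
    rw [hcF]
    rw [hrk] at hi2
    exact hr2 i hi hi2)) hlamo
  have hr2'' : Odd r := hr.odd_of_ne_two hr2'
  have hPd : finrank F P = 2 := by rw [hQ'.dim]
  refine iso_orth (p := p) hr hT (hQ.prod hQ').nondeg (Or.inr hPd) ?_ ?_ ?_
    (mem_of_odd hG hT.memO hr2'' hT.pow_eq) π hπ hker ?_
  · rw [hcF]
    intro h1
    have h3 : Fintype.card F ^ k = r * s + 1 := by omega
    have h2 : r ∣ 1 := (Nat.dvd_add_right (Dvd.intro s rfl)).1 (h3 ▸ Dvd.dvd.pow h1 (by omega))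
    exact hr.one_lt.ne' (Nat.dvd_one.1 h2)
  · rw [hcF]
    have h1 := hr2 1 one_pos (by omega)
    rwa [pow_one] at h1
  · rw [hcF]
    exact hr2 2 two_pos (by omega)
  · rintro ⟨h1, h2⟩
    have h3 := h1 ⟨zz P (dw y ^ 2), sq_mem hG (dw_mem_O y)⟩ (by
      apply Subtype.ext
      show zz P (dw lam) * zz P (dw y ^ 2) = zz P (dw y ^ 2) * zz P (dw lam)
      refine LinearEquiv.ext fun v => Prod.ext ?_ rfl
      show (dw lam : (K × K) ≃ₗ[F] (K × K)) ((dw y ^ 2 : (K × K) ≃ₗ[F] (K × K)) v.1) =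
        (dw y ^ 2 : (K × K) ≃ₗ[F] (K × K)) ((dw lam : (K × K) ≃ₗ[F] (K × K)) v.1)
      rw [dw_pow, dw_apply, dw_apply, dw_apply, dw_apply]
      refine Prod.ext ?_ ?_
      · show (lam : K) * (((y ^ 2 : Kˣ) : K) * v.1.1) = ((y ^ 2 : Kˣ) : K) * ((lam : K) * v.1.1)
        ring
      · show ((lam⁻¹ : Kˣ) : K) * ((((y ^ 2)⁻¹ : Kˣ) : K) * v.1.2) = (((y ^ 2)⁻¹ : Kˣ) : K) * (((lam⁻¹ : Kˣ) : K) * v.1.2)
        ring)
    have hntP : Nontrivial P := Module.nontrivial_of_finrank_pos (R := F) (by rw [hPd]; norm_num)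
    have hnt' : Nontrivial ((K × K) × P) := inferInstance
    obtain ⟨a, -, ha, haP⟩ := scal hker (hQ.prod hQ').nondeg hnt' _ h3
    have h4 : ((y ^ (2 * r) : Kˣ) : K) = a • (1 : K) := by
      have h5 := ha (1, 0)
      rw [← pow_mul, dw_pow, dw_apply] at h5
      have h6 := congrArg Prod.fst h5
      rw [mul_one] at h6
      exact h6
    rw [haP hntP, one_smul] at h4
    apply hnum
    constructor
    · rw [finrank_prod, hPd, hQ.dim] at h2
      omega
    · rw [← hy]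
      apply orderOf_dvd_of_pow_eq_one
      apply Units.ext
      rw [h4, Units.val_one]

/-- **`POmega⁺_8(q)`, `q ≥ 3`, `r` dividing `q ^ 3 - 1`.** -/
theorem isoP8 {F : Type} [Field F] [Fintype F] {p : ℕ} [Fact p.Prime] [CharP F p] (hF3 : 3 ≤ Fintype.card F)
    {S : Type*} [Group S] (e : S ≃* POmega F (quadFormPlus 4 F)) {r : ℕ} (hr : r.Prime)
    (hr1 : r ∣ Fintype.card F ^ 3 - 1) (hr2 : ∀ i : ℕ, 0 < i → i < 3 → ¬ r ∣ Fintype.card F ^ i - 1) :
    IsoAt p r S := by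
  have i : POmega F ⇑(plusForm 4 F) ≃* S := by
    rw [coe_plusForm]
    exact e.symm
  have h27 : 3 ^ 3 ≤ Fintype.card F ^ 3 := Nat.pow_le_pow_left hF3 3
  refine isoP' (p := p) (k := 3) le_rfl (by decide) (sg_hypForm (F := F)) (R := plusForm 4 F) ?_ i hr hr1 hr2 ?_
  · have := sg_plusForm (F := F) 4
    simpa using this
  · rintro ⟨h1, h2⟩
    have h3 := Nat.le_of_dvd (by have := hr.pos; omega) h2
    omega

end Cfsg.Agent.H530.OZ
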