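import Cfsg.Agent.H530.OZ.KCGeo

/-!
# S4842, `Ω_{2n+1}`: no elements of `r`-power order in small dimension (helper530)
-/

set_option autoImplicit false

namespace Cfsg.Agent.H530.OZ

open Module QuadraticMap Cfsg Subgroup
open Cfsg.Agent.LieClassical.OrthCore Cfsg.Agent.LieClassical.OrthTrans

theorem one_of_rpow {F V : Type} [Field F] [Fintype F] [AddCommGroup V] [Module F V] [Finite V]
    {Q : QuadraticForm F V} {k : ℕ} (hd : finrank F V = 2 * k + 1) {m r : ℕ} (hkm : k < m) (hr : r.Prime)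
    (hrq : ¬ r ∣ Fintype.card F) (cond : ∀ i, 0 < i → i < 2 * m → ¬ r ∣ Fintype.card F ^ i - 1) :
    ∀ s ∈ O Q, ∀ j : ℕ, s ^ (r ^ j) = 1 → s = 1 := by
  intro s _ j hj
  refine eq_one_of_order4 (F := F) hr hd (by rwa [Nat.card_eq_fintype_card]) ?_ ⟨j, hj⟩
  intro i hi hi2
  rw [Nat.card_eq_fintype_card]
  exact cond i hi (by omega)

end Cfsg.Agent.H530.OZ
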